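import Cfsg.Agent.R01.PSUSix
import Cfsg.Agent.S0279

/-!
# Elements of order 4 in `PSU₄(2)` and `PSU₅(2)` whose square commutes with an element of order 3 (helper328)

Tasks of helper307 for S3192-S3194: `cert_u42`, `cert_u52`.
-/

set_option autoImplicit false

namespace Cfsg.Agent.H328.CertU

open Cfsg Cfsg.Agent.LieClassical.HermBasic Cfsg.Agent.ClassicalGeometry.UnitTransv
open Cfsg.Agent.SporadicStructure.UnitTwo Cfsg.Agent.R01.PSUSix
open scoped Matrix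

variable {F : Type*} [Field F]

/-- the matrix of the discrete Fourier transform -/
def M (ω : F) : Matrix (Fin 3) (Fin 3) F := !![1, 1, 1; 1, ω, ω ^ 2; 1, ω ^ 2, ω]

theorem det_M {ω : F} (h2 : (2 : F) = 0) (hω : ω ^ 2 + ω + 1 = 0) : (M ω).det = 1 := by
  rw [M, Matrix.det_fin_three]
  simp
  linear_combination (3 - ω * (ω - 1)) * hω - (3 * ω + 2) * h2

theorem herm_M {ω : F} (h2 : (2 : F) = 0) (hω : ω ^ 2 + ω + 1 = 0) (x y : Fin 3 → F) :
    hermForm 3 F 2 (M ω *ᵥ x) (M ω *ᵥ y) = hermForm 3 F 2 x y := by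
  rw [herm_def, herm_def, Fin.sum_univ_three, Fin.sum_univ_three]
  simp only [M, Matrix.mulVec, dotProduct, Fin.sum_univ_three, Matrix.of_apply, Matrix.cons_val', Matrix.cons_val_zero,
    Matrix.cons_val_one, Matrix.cons_val_fin_one, Matrix.cons_val]
  linear_combination ((ω ^ 2 - ω + 1) * (x 0 * y 1 ^ 2 + x 0 * y 2 ^ 2) + (x 1 * y 0 ^ 2 + x 2 * y 0 ^ 2) +
      (ω - 1) * (ω ^ 3 + 2) * (x 1 * y 1 ^ 2 + x 2 * y 2 ^ 2) +
      (ω ^ 3 - ω + 1) * (x 1 * y 2 ^ 2 + x 2 * y 1 ^ 2)) * hω +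
    ((x 0 * y 0 ^ 2 + x 1 * y 1 ^ 2 + x 2 * y 2 ^ 2) +
      (x 0 + x 1 + x 2) * (y 0 * y 1 + y 1 * y 2 + y 0 * y 2) +
      (x 0 + ω * x 1 + ω ^ 2 * x 2) * (ω * (y 0 * y 1) + ω ^ 3 * (y 1 * y 2) + ω ^ 2 * (y 0 * y 2)) +
      (x 0 + ω ^ 2 * x 1 + ω * x 2) * (ω ^ 2 * (y 0 * y 1) + ω ^ 3 * (y 1 * y 2) + ω * (y 0 * y 2))) * h2

theorem M_mul_M {ω : F} (h2 : (2 : F) = 0) (hω : ω ^ 2 + ω + 1 = 0) :
    M ω * M ω = !![1, 0, 0; 0, 0, 1; 0, 1, 0] := by
  ext i j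
  fin_cases i <;> fin_cases j <;> simp [M, Matrix.mul_apply, Fin.sum_univ_three]
  · linear_combination h2
  · linear_combination hω
  · linear_combination hω
  · linear_combination hω
  · linear_combination (ω ^ 2 - ω + 1) * hω
  · linear_combination ω ^ 3 * h2
  · linear_combination hω
  · linear_combination ω ^ 3 * h2
  · linear_combination (ω ^ 2 - ω + 1) * hω

theorem scal_herm {ω : F} (hω : ω ^ 2 + ω + 1 = 0) (x y : Fin 3 → F) :
    hermForm 3 F 2 ((ω • (1 : Matrix (Fin 3) (Fin 3) F)) *ᵥ x) ((ω • (1 : Matrix (Fin 3) (Fin 3) F)) *ᵥ y) =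
      hermForm 3 F 2 x y := by
  rw [Matrix.smul_mulVec, Matrix.smul_mulVec, Matrix.one_mulVec, Matrix.one_mulVec, herm_def,
    herm_def, Fin.sum_univ_three, Fin.sum_univ_three]
  simp only [Pi.smul_apply, smul_eq_mul]
  linear_combination (ω - 1) * (x 0 * y 0 ^ 2 + x 1 * y 1 ^ 2 + x 2 * y 2 ^ 2) * hω

theorem scal_det {ω : F} (hω : ω ^ 2 + ω + 1 = 0) : (ω • (1 : Matrix (Fin 3) (Fin 3) F)).det = 1 := by
  rw [Matrix.det_smul, Matrix.det_one, Fintype.card_fin, mul_one]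
  linear_combination (ω - 1) * hω

/-- the element of order 4 -/
def X {ω : F} (h2 : (2 : F) = 0) (hω : ω ^ 2 + ω + 1 = 0) : SU 3 F 2 :=
  mk (M ω) (det_M h2 hω) (herm_M h2 hω)

/-- the central element of order 3 -/
def Y {ω : F} (hω : ω ^ 2 + ω + 1 = 0) : SU 3 F 2 :=
  mk (ω • (1 : Matrix (Fin 3) (Fin 3) F)) (scal_det hω) (scal_herm hω)

theorem act_X_X {ω : F} (h2 : (2 : F) = 0) (hω : ω ^ 2 + ω + 1 = 0) (x : Fin 3 → F) :
    act (X h2 hω ^ 2) x = ![x 0, x 2, x 1] := by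
  rw [pow_two, act_mul, X, act_mk, act_mk, Matrix.mulVec_mulVec, M_mul_M h2 hω]
  ext i
  fin_cases i <;> simp [Matrix.mulVec, dotProduct, Fin.sum_univ_three]

theorem orderOf_X {ω : F} (h2 : (2 : F) = 0) (hω : ω ^ 2 + ω + 1 = 0) : orderOf (X h2 hω) = 4 := by
  have : Fact (Nat.Prime 2) := ⟨Nat.prime_two⟩
  have h := orderOf_eq_prime_pow (p := 2) (n := 1) (x := X h2 hω) ?_ ?_
  · rw [h]; norm_num
  · intro h
    have h1 := act_X_X h2 hω ![0, 1, 0]
    rw [pow_one] at h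
    rw [h, act_one] at h1
    have := congrFun h1 1
    simp at this
  · have e : X h2 hω ^ 2 ^ (1 + 1) = X h2 hω ^ 2 * X h2 hω ^ 2 := by group
    rw [e]
    apply ext_act
    intro x
    rw [act_mul, act_X_X, act_X_X, act_one]
    ext i
    fin_cases i <;> simp

theorem Y_cube {ω : F} (hω : ω ^ 2 + ω + 1 = 0) : Y hω ^ 3 = 1 := by
  apply ext_act
  intro x
  rw [_root_.pow_three, act_mul, act_mul, Y, act_mk, act_mk, act_mk, act_one]
  simp only [Matrix.smul_mulVec, Matrix.one_mulVec, Matrix.mulVec_smul, smul_smul]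
  have : ω * (ω * ω) = 1 := by linear_combination (ω - 1) * hω
  ext i
  simp only [Pi.smul_apply, smul_eq_mul]
  linear_combination x i * this

theorem Y_ne {ω : F} (hω : ω ^ 2 + ω + 1 = 0) (h3 : (3 : F) ≠ 0) : Y hω ≠ 1 := by
  intro h
  have h1 : act (Y hω) ![1, 0, 0] = ![1, 0, 0] := by rw [h, act_one]
  rw [Y, act_mk, Matrix.smul_mulVec, Matrix.one_mulVec] at h1
  have h2 := congrFun h1 0
  simp at h2
  apply h3
  rw [h2] at hω
  linear_combination hω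

theorem comm_XY {ω : F} (h2 : (2 : F) = 0) (hω : ω ^ 2 + ω + 1 = 0) :
    X h2 hω * Y hω = Y hω * X h2 hω := by
  apply ext_act
  intro x
  rw [act_mul, act_mul, Y, act_mk, act_mk, X, act_mk, act_mk, Matrix.smul_mulVec, Matrix.smul_mulVec,
    Matrix.one_mulVec, Matrix.one_mulVec, Matrix.mulVec_smul]

theorem emb_injective {m : ℕ} (k : ℕ) : Function.Injective (emb k : SU m F 2 →* SU (m + k) F 2) := by
  rw [injective_iff_map_eq_one]
  intro g hg
  apply ext_act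
  intro x
  have h := act_emb (k := k) g x 0
  rw [hg, act_one] at h
  have h1 := congrArg (fun z : Fin (m + k) → F => fun i => z (Fin.castAdd k i)) h
  simp only [Fin.append_left] at h1
  rw [act_one]
  exact h1.symm

theorem cert [Fintype F] (hF : Fintype.card F = 4) (k : ℕ) (hk : Nat.gcd (3 + k) (2 + 1) = 1) :
    ∃ x y : Cfsg.PSU (3 + k) F 2, orderOf x = 4 ∧ y ≠ 1 ∧ Odd (orderOf y) ∧
      x ^ 2 * y = y * x ^ 2 := by
  have hF' : Fintype.card F = 2 ^ 2 := by rw [hF]; norm_num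
  have h2 := two_eq_zero hF'
  obtain ⟨ω, hω⟩ := exists_omega hF'
  have h3 : (3 : F) ≠ 0 := by
    intro h
    have : (1 : F) = 0 := by linear_combination h - h2
    exact one_ne_zero this
  have hc : Nat.card (Subgroup.center (Cfsg.SU (3 + k) F 2)) = 1 := by
    rw [Cfsg.Agent.S0279.result hF' (3 + k) (by omega), hk]
  have hcb : Subgroup.center (Cfsg.SU (3 + k) F 2) = ⊥ := Subgroup.card_eq_one.1 hc
  have hπ : Function.Injective (QuotientGroup.mk' (Subgroup.center (Cfsg.SU (3 + k) F 2))) := by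
    rw [← MonoidHom.ker_eq_bot_iff, QuotientGroup.ker_mk', hcb]
  set f : SU 3 F 2 →* PSU (3 + k) F 2 :=
    (QuotientGroup.mk' (Subgroup.center (Cfsg.SU (3 + k) F 2))).comp (emb k) with hf
  have hfi : Function.Injective f := hπ.comp (emb_injective k)
  refine ⟨f (X h2 hω), f (Y hω), ?_, ?_, ?_, ?_⟩
  · rw [orderOf_injective f hfi, orderOf_X]
  · intro h
    exact Y_ne hω h3 (hfi (by rw [h, map_one]))
  · rw [orderOf_injective f hfi]
    have : Fact (Nat.Prime 3) := ⟨Nat.prime_three⟩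
    rw [orderOf_eq_prime (Y_cube hω) (Y_ne hω h3)]
    decide
  · rw [← map_pow, ← map_mul, ← map_mul]
    congr 1
    have h := comm_XY h2 hω
    rw [pow_two, mul_assoc, h, ← mul_assoc, h, mul_assoc]

theorem cert_u42 {F : Type} [Field F] [Fintype F] (hF : Fintype.card F = 4) :
    ∃ x y : Cfsg.PSU 4 F 2, orderOf x = 4 ∧ y ≠ 1 ∧ Odd (orderOf y) ∧ x ^ 2 * y = y * x ^ 2 :=
  cert hF 1 (by decide)

theorem cert_u52 {F : Type} [Field F] [Fintype F] (hF : Fintype.card F = 4) :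
    ∃ x y : Cfsg.PSU 5 F 2, orderOf x = 4 ∧ y ≠ 1 ∧ Odd (orderOf y) ∧ x ^ 2 * y = y * x ^ 2 :=
  cert hF 2 (by decide)

end Cfsg.Agent.H328.CertU
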